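import Mathlib

/-!
Two groups generated by families permuted in the same way by conjugation agree modulo their centres.
-/

set_option autoImplicit false

namespace CfsgLib.Fischer.Recognition.Pair

theorem mem_center_of_fix {G ι : Type*} [Group G] {t : ι → G} (ht : Subgroup.closure (Set.range t) = ⊤) {g : G}
    (h : ∀ i, g * t i * g⁻¹ = t i) : g ∈ Subgroup.center G := by
  refine Subgroup.mem_center_iff.2 fun x => ?_
  induction (ht ▸ Subgroup.mem_top x : x ∈ Subgroup.closure (Set.range t)) using Subgroup.closure_induction with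
  | mem x hx => obtain ⟨i, rfl⟩ := hx; exact (mul_inv_eq_iff_eq_mul.1 (h i)).symm
  | one => simp
  | mul x y _ _ hx hy => rw [mul_assoc, hy, ← mul_assoc, hx, mul_assoc]
  | inv x _ hx => exact ((Commute.inv_left (show Commute x g from hx))).eq

variable {A B : Type*} [Group A] [Group B] {ι κ : Type*} [Finite ι]

theorem quotient_center_equiv (s : ι → A) (r : ι → B) (hs : Function.Injective s) (hr : Function.Injective r)
    (hA : Subgroup.closure (Set.range s) = ⊤) (hB : Subgroup.closure (Set.range r) = ⊤)
    (gen : κ → ι) (act : κ → ι → ι) (hsc : ∀ k i, s (gen k) * s i * (s (gen k))⁻¹ = s (act k i))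
    (hrc : ∀ k i, r (gen k) * r i * (r (gen k))⁻¹ = r (act k i))
    (hreach : ∀ i, (s i, r i) ∈ Subgroup.closure (Set.range fun k => (s (gen k), r (gen k)))) :
    Nonempty (A ⧸ Subgroup.center A ≃* B ⧸ Subgroup.center B) := by
  classical
  set P : Subgroup (A × B) := Subgroup.closure (Set.range fun k => (s (gen k), r (gen k))) with hP
  have hperm : ∀ p ∈ P, ∀ i, ∃ j, p.1 * s i * p.1⁻¹ = s j ∧ p.2 * r i * p.2⁻¹ = r j := by
    intro p hp
    induction hp using Subgroup.closure_induction with
    | mem p hp =>
      obtain ⟨k, rfl⟩ := hp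
      exact fun i => ⟨act k i, hsc k i, hrc k i⟩
    | one => exact fun i => ⟨i, by simp, by simp⟩
    | mul p q _ _ hp hq =>
      intro i
      obtain ⟨j, h1, h2⟩ := hq i
      obtain ⟨l, h3, h4⟩ := hp j
      refine ⟨l, ?_, ?_⟩
      · rw [← h3, ← h1, Prod.fst_mul]; group
      · rw [← h4, ← h2, Prod.snd_mul]; group
    | inv p _ hp =>
      choose f hf using hp
      have hinj : Function.Injective f := fun i j e => hs (by
        have h1 := (hf i).1
        rw [e, ← (hf j).1] at h1
        exact mul_left_cancel (mul_right_cancel h1))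
      intro i
      obtain ⟨j, rfl⟩ := (Finite.injective_iff_surjective.1 hinj) i
      refine ⟨j, ?_, ?_⟩
      · rw [← (hf j).1, Prod.fst_inv]; group
      · rw [← (hf j).2, Prod.snd_inv]; group
  let fA : P →* A ⧸ Subgroup.center A :=
    (QuotientGroup.mk' _).comp ((MonoidHom.fst A B).comp P.subtype)
  let fB : P →* B ⧸ Subgroup.center B :=
    (QuotientGroup.mk' _).comp ((MonoidHom.snd A B).comp P.subtype)
  have hfst : Function.Surjective ((MonoidHom.fst A B).comp P.subtype) := by
    rw [← MonoidHom.range_eq_top, eq_top_iff, ← hA, Subgroup.closure_le]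
    rintro _ ⟨i, rfl⟩
    exact ⟨⟨_, hreach i⟩, rfl⟩
  have hsnd : Function.Surjective ((MonoidHom.snd A B).comp P.subtype) := by
    rw [← MonoidHom.range_eq_top, eq_top_iff, ← hB, Subgroup.closure_le]
    rintro _ ⟨i, rfl⟩
    exact ⟨⟨_, hreach i⟩, rfl⟩
  have hsA : Function.Surjective fA := (QuotientGroup.mk'_surjective _).comp hfst
  have hsB : Function.Surjective fB := (QuotientGroup.mk'_surjective _).comp hsnd
  have hker : fA.ker = fB.ker := by
    ext p
    simp only [MonoidHom.mem_ker, fA, fB, MonoidHom.comp_apply, QuotientGroup.mk'_apply, QuotientGroup.eq_one_iff]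
    constructor
    · intro h
      refine mem_center_of_fix hB fun i => ?_
      obtain ⟨j, h1, h2⟩ := hperm _ p.2 i
      have he : (p : A × B).1 * s i * (p : A × B).1⁻¹ = s i := by
        rw [← Subgroup.mem_center_iff.1 (show (p : A × B).1 ∈ Subgroup.center A from h) (s i), mul_inv_cancel_right]
      rw [← hs (he.symm.trans h1)] at h2
      exact h2
    · intro h
      refine mem_center_of_fix hA fun i => ?_
      obtain ⟨j, h1, h2⟩ := hperm _ p.2 i
      have he : (p : A × B).2 * r i * (p : A × B).2⁻¹ = r i := by
        rw [← Subgroup.mem_center_iff.1 (show (p : A × B).2 ∈ Subgroup.center B from h) (r i), mul_inv_cancel_right]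
      rw [← hr (he.symm.trans h2)] at h1
      exact h1
  exact ⟨(QuotientGroup.quotientKerEquivOfSurjective fA hsA).symm.trans
    ((QuotientGroup.quotientMulEquivOfEq hker).trans (QuotientGroup.quotientKerEquivOfSurjective fB hsB))⟩

end CfsgLib.Fischer.Recognition.Pair
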