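import Cfsg.Agent.Lib.Fischer.Recognition.Pair.Form
import Cfsg.Agent.Lib.Fischer.Recognition.Pair.Quotient
import Cfsg.Agent.Lib.SporRecognition.F22Model.Key
import Cfsg.Agent.Lib.Fischer.Classes

/-!
In the model of Fi22 the common neighbours of two noncommuting members generate, modulo the centre, the projective
reflection group of the six-dimensional space of discriminant one.
-/

set_option autoImplicit false
set_option maxRecDepth 100000

namespace CfsgLib.Fischer.Recognition.Pair

open CfsgLib.SporRecognition.CosetCert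
open CfsgLib.SporRecognition.F22Model

/-- The point of a member. -/
def pnt (i : Fin 126) : Fin 3510 := ⟨memT.getD i 0 % 3510, Nat.mod_lt _ (by norm_num)⟩

/-- The conjugating word of a generator. -/
def genF (k : Fin 7) : Word := genW.getD k [] ++ [(.a, true)] ++ winv (genW.getD k [])

theorem gen_facts : ∀ k : Fin 7, Nat.beq (tr (genW.getD k []) 0) (pnt (k.castLE (by norm_num))) = true := by
  decide +kernel

theorem conj_facts : allBelow 3 7 (fun k => allBelow 7 126 fun i =>
    Nat.beq (tr (genW.getD k [] ++ [(.a, true)] ++ winv (genW.getD k [])) (memT.getD i 0 % 3510))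
      (memT.getD ((conjT.getD k []).getD i 126) 0 % 3510)) = true := by
  decide +kernel

/-- The word of the second member. -/
def wB : Word := [(.a, true), (.b, true), (.a, true), (.b, false), (.a, false)]

theorem commute_facts : allBelow 12 3510 (fun v =>
    (Nat.beq (tr [(.a, true)] v) v && Nat.beq (tr wB v) v) == memT.contains v) = true := by
  decide +kernel

theorem word_two : Nat.beq (tr [(.a, true), (.b, true)] 0) 2 = true := by decide +kernel

theorem noncommute : Nat.beq (tr [(.a, true)] 2) 2 = false := by decide +kernel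

theorem mem_nodup : ∀ i j : Fin 126, pnt i = pnt j → i = j := by decide +kernel

variable {G : Type*} [Group G] {D : Set G} (M : Model G D)

theorem act_tau {w : Word} {v : Fin 3510} (hw : tr w 0 = v) (u : Fin 3510) :
    ((M.act (M.tau v) u : Fin 3510) : Nat) = tr (w ++ [(.a, true)] ++ winv w) u := by
  rw [M.tau_word w v hw, M.act_ev]

theorem commute_tau (u v : Fin 3510) : Commute (M.tau u) (M.tau v) ↔ M.act (M.tau u) v = v := by
  rw [commute_iff_eq, ← mul_inv_eq_iff_eq_mul, M.heq, M.tau_injective.eq_iff]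

theorem commute_a (v : Fin 3510) : Commute (M.tau 0) (M.tau v) ↔ tr [(.a, true)] v = v := by
  rw [commute_tau, Fin.ext_iff, act_tau M (w := []) rfl]
  rfl

theorem commute_b (v : Fin 3510) : Commute (M.tau 2) (M.tau v) ↔ tr wB v = v := by
  rw [commute_tau, Fin.ext_iff, act_tau M (w := [(.a, true), (.b, true)]) (Nat.eq_of_beq_eq_true word_two)]
  rfl

theorem not_commute : ¬ Commute (M.tau 0) (M.tau 2) := fun h => by
  have h' := (commute_a M 2).1 h
  have h2 := noncommute
  rw [show tr [(.a, true)] 2 = 2 from h', Nat.beq_refl] at h2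
  exact Bool.noConfusion h2

theorem range_pnt : Set.range (M.tau ∘ pnt) = perp D (M.tau 0) ∩ perp D (M.tau 2) := by
  have hlen : memT.length = 126 := rfl
  ext x
  constructor
  · rintro ⟨i, rfl⟩
    have hf := allBelow_spec commute_facts (pnt i) (pnt i).2
    have hm : memT.contains ((pnt i : Fin 3510) : Nat) = true := by
      revert i
      decide +kernel
    rw [hm, beq_iff_eq, Bool.and_eq_true] at hf
    have h1 := (commute_a M (pnt i)).2 (Nat.eq_of_beq_eq_true hf.1)
    have h2 := (commute_b M (pnt i)).2 (Nat.eq_of_beq_eq_true hf.2)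
    exact ⟨⟨M.tau_mem _, fun e : M.tau (pnt i) = M.tau 0 => not_commute M (e ▸ h2).symm, h1⟩,
      ⟨M.tau_mem _, fun e : M.tau (pnt i) = M.tau 2 => not_commute M (e ▸ h1), h2⟩⟩
  · rintro ⟨⟨hx, -, h1⟩, -, -, h2⟩
    obtain ⟨v, rfl⟩ := M.exists_tau hx
    have hf := allBelow_spec commute_facts v v.2
    rw [(commute_a M v).1 h1, (commute_b M v).1 h2, Nat.beq_refl, Bool.true_and, beq_iff_eq] at hf
    have hv : (v : Nat) ∈ memT := List.contains_iff_mem.1 hf.symm
    obtain ⟨i, hi, e⟩ := List.getElem_of_mem hv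
    refine ⟨⟨i, hlen ▸ hi⟩, congrArg M.tau (Fin.ext ?_)⟩
    show memT.getD i 0 % 3510 = v
    rw [List.getD_eq_getElem?_getD, List.getElem?_eq_getElem hi, Option.getD_some, e, Nat.mod_eq_of_lt v.2]

theorem conj_step (k : Fin 7) (i : Fin 126) :
    M.tau (pnt (k.castLE (by norm_num))) * M.tau (pnt i) * (M.tau (pnt (k.castLE (by norm_num))))⁻¹ =
      M.tau (pnt (conjM k i)) := by
  rw [M.heq]
  refine congrArg M.tau (Fin.ext ?_)
  rw [act_tau M (Nat.eq_of_beq_eq_true (gen_facts k))]
  exact Nat.eq_of_beq_eq_true (allBelow_spec (allBelow_spec conj_facts k k.2) i i.2)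

/-- The pair quotient in the model. -/
theorem pair_quotient :
    Cfsg.IsProjReflectionGroupModThree
      (↥(Subgroup.closure (perp D (M.tau 0) ∩ perp D (M.tau 2))) ⧸
        Subgroup.center ↥(Subgroup.closure (perp D (M.tau 0) ∩ perp D (M.tau 2)))) 6 1 1 := by
  refine ⟨form, nondegenerate, gram_det, ?_⟩
  rw [← range_pnt]
  let s : Fin 126 → ↥(Subgroup.closure (Set.range (M.tau ∘ pnt))) := fun i =>
    ⟨M.tau (pnt i), Subgroup.subset_closure ⟨i, rfl⟩⟩
  refine quotient_center_equiv s rfl' (fun i j h => mem_nodup i j (M.tau_injective (congrArg Subtype.val h)))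
    rfl'_injective ?_ closure_rfl' (fun k : Fin 7 => k.castLE (by norm_num)) conjM
    (fun k i => Subtype.ext (conj_step M k i)) rfl'_conj ?_
  · have h := Subgroup.closure_closure_coe_preimage (k := Set.range (M.tau ∘ pnt))
    convert h using 2
    ext x
    constructor
    · rintro ⟨i, rfl⟩; exact ⟨i, rfl⟩
    · rintro ⟨i, hi⟩; exact ⟨i, Subtype.ext hi⟩
  · intro i
    obtain ⟨n, hn⟩ := i
    induction n using Nat.strongRecOn with
    | _ n ih =>
      by_cases h7 : n < 7
      · exact Subgroup.subset_closure ⟨⟨n, h7⟩, rfl⟩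
      obtain ⟨hk, hj, he⟩ := par_facts ⟨n - 7, by omega⟩
      simp only [show n - 7 + 7 = n by omega] at hj he
      have hk' : ((⟨_, hk⟩ : Fin 7).castLE (by norm_num) : Fin 126) = ⟨_, Nat.lt_of_lt_of_le hk (by norm_num)⟩ := rfl
      have hP := ih _ hj (Nat.lt_trans hj hn)
      have hg : (s ((⟨_, hk⟩ : Fin 7).castLE (by norm_num)), rfl' ((⟨_, hk⟩ : Fin 7).castLE (by norm_num))) ∈
          Subgroup.closure (Set.range fun k : Fin 7 => (s (k.castLE (by norm_num)), rfl' (k.castLE (by norm_num)))) :=
        Subgroup.subset_closure ⟨_, rfl⟩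
      convert mul_mem (mul_mem hg hP) (inv_mem hg) using 1
      have hc : conjM ⟨_, hk⟩ ⟨_, Nat.lt_trans hj hn⟩ = ⟨n, hn⟩ := Fin.ext he
      refine Prod.ext ?_ ?_
      · simp only [Prod.fst_mul, Prod.fst_inv]
        rw [← hc]
        exact Subtype.ext (conj_step M ⟨_, hk⟩ ⟨_, Nat.lt_trans hj hn⟩).symm
      · simp only [Prod.snd_mul, Prod.snd_inv]
        rw [← hc]
        exact (rfl'_conj ⟨_, hk⟩ ⟨_, Nat.lt_trans hj hn⟩).symm

end CfsgLib.Fischer.Recognition.Pair
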